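import Cfsg.Agent.H103.OT.Core2
import Cfsg.Agent.H103.OT.SubF
import Cfsg.Agent.H103.OT.AddLau
import Cfsg.Agent.H428.OT.LTC
import Cfsg.Agent.H175.OT.P
import Cfsg.Agent.H186.OT.Emp

/-!
# S2539, part 5: the first level of the abstract core (helper876)

* `perf` : for `g ∈ F` with `D_F ^ g ≤ M_F`: `D_F ^ g ≤ D_F`;
* `p5a` : the structure `P5a` for `F`, from `SubF D K F` (`D = F₄, G₂`).
-/

set_option autoImplicit false
set_option linter.unusedSectionVars false

namespace Cfsg.Agent.H876.OT.Perf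

open Subgroup Cfsg Cfsg.Lie Cfsg.Agent.H412.OT Cfsg.Agent.H186.OT Cfsg.Agent.H274.OT Cfsg.Agent.H103.OT
open Cfsg.Agent.ChevalleyStructure Cfsg.Agent.ChevalleyStructure.Elts
open scoped commutatorElement

universe u

variable {D : ChevalleyDatum} {K : Type u} [Field K] [Fintype K] {p : ℕ} {F : Subgroup (GL D.Idx K)}

/-- normalisers of subgroups of `F` -/
theorem tor_le_norm_DF (hD : InList D) : D.diagonalSubgroup K ≤ normalizer (DF D K F : Set (GL D.Idx K)) := by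
  have key : ∀ t ∈ D.diagonalSubgroup K, ∀ x ∈ DF D K F, t * x * t⁻¹ ∈ DF D K F := by
    intro t ht
    have h1 : DF D K F ≤ (DF D K F).comap (MulAut.conj t).toMonoidHom :=
      iSup₂_le fun r hr x hx => rootSubgroup_le_DF hr (tor_conj_root hD ht hr.1 hx)
    exact fun x hx => h1 hx
  intro t ht
  rw [mem_normalizer_iff]
  intro x
  refine ⟨key t ht x, fun hx => ?_⟩
  have h1 := key t⁻¹ (inv_mem ht) _ hx
  have e : t⁻¹ * (t * x * t⁻¹) * t⁻¹⁻¹ = x := by group
  rwa [e] at h1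

/-- `[D_F T, D_F T] ≤ D_F` -/
theorem comm_le (hD : InList D) :
    ⁅DF D K F ⊔ D.diagonalSubgroup K, DF D K F ⊔ D.diagonalSubgroup K⁆ ≤ DF D K F := by
  rw [commutator_le]
  intro a ha b hb
  have hn := tor_le_norm_DF (F := F) hD
  have h1 : ∀ x ∈ DF D K F ⊔ D.diagonalSubgroup K, ∃ d ∈ DF D K F, ∃ t ∈ D.diagonalSubgroup K, x = d * t := by
    intro x hx
    have h2 : x ∈ ((DF D K F ⊔ D.diagonalSubgroup K : Subgroup (GL D.Idx K)) : Set (GL D.Idx K)) := hx
    rw [coe_mul_of_right_le_normalizer_left _ _ hn, Set.mem_mul] at h2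
    obtain ⟨d, hd, t, ht, e⟩ := h2
    exact ⟨d, hd, t, ht, e.symm⟩
  obtain ⟨d, hd, s, hs, rfl⟩ := h1 a ha
  obtain ⟨e, he, t, ht, rfl⟩ := h1 b hb
  have hst : s * t = t * s := tor_comm hD hs ht
  have c1 : s * e * s⁻¹ ∈ DF D K F := (mem_normalizer_iff.1 (hn hs) e).1 he
  have c2 : t * d⁻¹ * t⁻¹ ∈ DF D K F := (mem_normalizer_iff.1 (hn ht) d⁻¹).1 (inv_mem hd)
  have e1 : ⁅d * s, e * t⁆ = d * (s * e * s⁻¹) * (t * d⁻¹ * t⁻¹) * e⁻¹ := by
    rw [commutatorElement_def]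
    have h3 : s * t * s⁻¹ = t := by rw [hst, mul_inv_cancel_right]
    calc d * s * (e * t) * (d * s)⁻¹ * (e * t)⁻¹
        = d * (s * e * s⁻¹) * (s * t * s⁻¹) * d⁻¹ * t⁻¹ * e⁻¹ := by group
      _ = d * (s * e * s⁻¹) * t * d⁻¹ * t⁻¹ * e⁻¹ := by rw [h3]
      _ = d * (s * e * s⁻¹) * (t * d⁻¹ * t⁻¹) * e⁻¹ := by group
  rw [e1]
  exact mul_mem (mul_mem (mul_mem hd c1) c2) (inv_mem he)

/-- the conjugates of `D_F` in `M_F` lie in `D_F` -/
theorem perf (hy : Hyp K p D) (hDD : D = chevF4 ∨ D = chevG2) (h : MinBad D K F) (hs : SubF D K F)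
    {g : GL D.Idx K} (hg : g ∈ F) (hgM : ∀ d ∈ DF D K F, g * d * g⁻¹ ∈ MF D K F) :
    ∀ d ∈ DF D K F, g * d * g⁻¹ ∈ DF D K F := by
  have hD := hy.inList
  -- `D_F ^ g ≤ D_F T`
  have h1 : DF D K F ≤ (DF D K F ⊔ D.diagonalSubgroup K).comap (MulAut.conj g).toMonoidHom := by
    refine iSup₂_le fun r hr x hx => ?_
    refine hs.cY (mem_inf.2 ⟨mem_centralizer_iff.2 fun y hy' => ?_, ?_⟩)
    · exact (root_comm hDD hy.card (Y0_le F) hr.1
        (fun z hz => MF_le_normalizer_Y0 hy h.le (hgM z (rootSubgroup_le_DF hr hz))) hx hy').symm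
    · exact h.le (mul_mem (mul_mem hg (hr.2 hx)) (inv_mem hg))
  have h2 : (DF D K F).map (MulAut.conj g).toMonoidHom ≤ DF D K F := by
    rw [← hs.perf, map_commutator]
    conv_rhs => rw [hs.perf]
    exact (commutator_mono (map_le_iff_le_comap.2 h1) (map_le_iff_le_comap.2 h1)).trans (comm_le hD)
  exact fun d hd => h2 ⟨d, hd, rfl⟩

/-- the Laurent trick for the torus -/
theorem lt_tor (hy : Hyp K p D) (h : MinBad D K F) (hs : SubF D K F)
    {g : GL D.Idx K} (hg : ∀ t ∈ D.diagonalSubgroup K, g * t * g⁻¹ ∈ MF D K F) :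
    ∀ t ∈ D.diagonalSubgroup K, g * t * g⁻¹ ∈ DF D K F ⊔ D.diagonalSubgroup K := by
  have hD := hy.inList
  have h1 : D.diagonalSubgroup K ≤ (DF D K F ⊔ D.diagonalSubgroup K).comap (MulAut.conj g).toMonoidHom := by
    refine H428.OT.tor_le_of_long hD hy.mem _ fun r hr c hc => ?_
    have h2 := le_DT_of_le_MF hy h.le hs.cY hr.1 (fun s hs' => H428.OT.abs_pr_of_long hD hr hs') (g := g)
      ((Hr_le_iff hD r).2 fun c hc => hg _ (hG_mem hD hr.1 hc))
    exact (Hr_le_iff hD r).1 h2 c hc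
  exact fun t ht => h1 ht

/-- **The first level of the abstract core.** -/
def p5a (hy : Hyp K p D) (hDD : D = chevF4 ∨ D = chevG2) (h : MinBad D K F) (hs : SubF D K F) : P5a F where
  T := (D.diagonalSubgroup K).subgroupOf F
  D := (DF D K F).subgroupOf F
  M := (MF D K F).subgroupOf F
  Y := (Y0 D K F).subgroupOf F
  tab := fun a ha b hb => Subtype.ext (tor_comm hy.inList (mem_subgroupOf.1 ha) (mem_subgroupOf.1 hb))
  tm := fun t ht => mem_subgroupOf.2 (tor_le_MF h.tor (mem_subgroupOf.1 ht))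
  dm := fun t ht => mem_subgroupOf.2 (DF_le_MF F (mem_subgroupOf.1 ht))
  mtop := by
    intro e
    refine (h.MF_lt hy).not_ge fun x hx => ?_
    have h2 : (⟨x, hx⟩ : F) ∈ (MF D K F).subgroupOf F := by rw [e]; exact mem_top _
    exact mem_subgroupOf.1 h2
  uniq := by
    intro H hTH hH x hx
    have h1 : D.diagonalSubgroup K ≤ H.map F.subtype := fun t ht => ⟨⟨t, h.tor ht⟩, hTH (mem_subgroupOf.2 ht), rfl⟩
    have h2 : H.map F.subtype ≤ F := by
      rintro _ ⟨y, -, rfl⟩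
      exact y.2
    have h3 : H.map F.subtype < F := by
      refine lt_of_le_of_ne h2 fun e => hH (eq_top_iff.2 fun y _ => ?_)
      have h4 : (y : GL D.Idx K) ∈ H.map F.subtype := by rw [e]; exact y.2
      obtain ⟨z, hz, e2⟩ := h4
      rwa [← Subtype.ext e2]
    exact mem_subgroupOf.2 (h.le_MF_of_lt h1 h3 ⟨x, hx, rfl⟩)
  dn := by
    intro m hm d hd
    have h1 : MF D K F ≤ normalizer (DF D K F : Set (GL D.Idx K)) :=
      sup_le le_normalizer (norm_le_normalizer_DF hy h.le)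
    exact mem_subgroupOf.2 ((mem_normalizer_iff.1 (h1 (mem_subgroupOf.1 hm)) _).1 (mem_subgroupOf.1 hd))
  yt := fun y hy' => mem_subgroupOf.2 (Y0_le F (mem_subgroupOf.1 hy'))
  yn := by
    intro m hm y hy'
    exact mem_subgroupOf.2 ((mem_normalizer_iff.1 (MF_le_normalizer_Y0 hy h.le (mem_subgroupOf.1 hm)) _).1
      (mem_subgroupOf.1 hy'))
  yd := by
    intro y hy' d hd
    apply Subtype.ext
    exact ((mem_centralizer_iff.1 (mem_subgroupOf.1 hy').2) d (mem_subgroupOf.1 hd)).symm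
  normD := by
    intro g hg
    refine mem_subgroupOf.2 (hs.normD g g.2 fun d hd => ?_)
    exact mem_subgroupOf.1 (hg ⟨d, DF_le F hd⟩ (mem_subgroupOf.2 hd))
  perf := by
    intro g hg d hd
    refine mem_subgroupOf.2 (perf hy hDD h hs g.2 (fun x hx => ?_) d (mem_subgroupOf.1 hd))
    exact mem_subgroupOf.1 (hg ⟨x, DF_le F hx⟩ (mem_subgroupOf.2 hx))
  cT := by
    intro x hx
    refine mem_subgroupOf.2 (H428.OT.mem_tor_of_comm (by have := hy.card; omega) hy.inList (h.le x.2) fun t ht => ?_)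
    exact congrArg Subtype.val (hx ⟨t, h.tor ht⟩ (mem_subgroupOf.2 ht))
  lt := by
    intro g hg t ht
    have h1 := lt_tor hy h hs (g := g) (fun t ht => mem_subgroupOf.1 (hg ⟨t, h.tor ht⟩ (mem_subgroupOf.2 ht)))
      t (mem_subgroupOf.1 ht)
    have h2 : (DF D K F).subgroupOf F ⊔ (D.diagonalSubgroup K).subgroupOf F =
        (DF D K F ⊔ D.diagonalSubgroup K).subgroupOf F := (subgroupOf_sup (DF_le F) h.tor).symm
    rw [h2]
    exact mem_subgroupOf.2 h1
  exy := by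
    by_contra hcon
    push Not at hcon
    refine (h.MF_lt hy).not_ge ?_
    have h1 : F ≤ centralizer (Y0 D K F : Set (GL D.Idx K)) ⊓ D.group K := by
      intro f hf
      refine mem_inf.2 ⟨mem_centralizer_iff.2 fun y hy' => ?_, h.le hf⟩
      have h2 := hcon ⟨y, h.tor (Y0_le F hy')⟩ (mem_subgroupOf.2 hy')
      exact (congrArg Subtype.val (mem_center_iff.1 h2 ⟨f, hf⟩)).symm
    exact (h1.trans hs.cY).trans (sup_le (DF_le_MF F) (tor_le_MF h.tor))

end Cfsg.Agent.H876.OT.Perf
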